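import Mathlib.GroupTheory.Sylow
import Mathlib.GroupTheory.Index

/-! Small helpers for helper4's statements. -/

set_option autoImplicit false

namespace Cfsg.Agent.H4

variable {G : Type*} [Group G]

/-- If all commutators of `x` lie in `K`, then `x` has at most `#K` conjugates. -/
theorem index_centralizer_singleton_le [Finite G] {K : Subgroup G} {x : G}
    (h : ∀ g : G, g * x * g⁻¹ * x⁻¹ ∈ K) :
    (Subgroup.centralizer ({x} : Set G)).index ≤ Nat.card K := by
  rw [Subgroup.index_eq_card]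
  have hwd : ∀ a b : G, QuotientGroup.leftRel (Subgroup.centralizer ({x} : Set G)) a b →
      (⟨a * x * a⁻¹ * x⁻¹, h a⟩ : K) = ⟨b * x * b⁻¹ * x⁻¹, h b⟩ := by
    intro a b hab
    rw [QuotientGroup.leftRel_apply, Subgroup.mem_centralizer_singleton_iff] at hab
    refine Subtype.ext ?_
    calc a * x * a⁻¹ * x⁻¹ = a * (x * (a⁻¹ * b)) * b⁻¹ * x⁻¹ := by group
      _ = a * ((a⁻¹ * b) * x) * b⁻¹ * x⁻¹ := by rw [hab]
      _ = b * x * b⁻¹ * x⁻¹ := by group
  refine Nat.card_le_card_of_injective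
    (Quotient.lift (fun g : G => (⟨g * x * g⁻¹ * x⁻¹, h g⟩ : K)) hwd) ?_
  rintro ⟨a⟩ ⟨b⟩ hab
  have hab' : a * x * a⁻¹ * x⁻¹ = b * x * b⁻¹ * x⁻¹ := congrArg Subtype.val hab
  refine Quotient.sound ?_
  change QuotientGroup.leftRel _ a b
  rw [QuotientGroup.leftRel_apply, Subgroup.mem_centralizer_singleton_iff]
  have h2 : a * x * a⁻¹ = b * x * b⁻¹ := mul_right_cancel hab'
  calc a⁻¹ * b * x = a⁻¹ * (b * x * b⁻¹) * b := by group
    _ = a⁻¹ * (a * x * a⁻¹) * b := by rw [h2]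
    _ = x * (a⁻¹ * b) := by group

end Cfsg.Agent.H4
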